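import Cfsg.Agent.Mult.Slices
import Cfsg.Agent.ONC.Mul2T0

set_option autoImplicit false
set_option Elab.async false
set_option maxRecDepth 100000
set_option linter.all false

namespace Cfsg.Agent.ONC
open Cfsg.Agent.CGT

open Cfsg.Agent.Mult

theorem u2_pb {G : Type*} [Group G] [Finite G] {φ : G →* Equiv.Perm ℕ} {γ : ℕ → G}
    (M : Model φ γ 17 l0_ns m_ts) (hB : IsBase φ ⊤ [2, 1, 55, 18, 16, 0]) (hN : Nat.card G = 460815505920) : PBound G 2 0 :=
  pbound_all M hB hN (by decide +kernel) (by decide +kernel) u2_all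

end Cfsg.Agent.ONC
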