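import Cfsg.Agent.Mult.Slices
import Cfsg.Agent.ONC.Tabs

set_option autoImplicit false
set_option Elab.async false
set_option maxRecDepth 100000
set_option linter.all false

namespace Cfsg.Agent.ONC
open Cfsg.Agent.CGT

open Cfsg.Agent.Mult

noncomputable def u3_D : PC := ⟨3, 4, 2, 23,
  [[0, 4, 0x10, 0x40], [0, 0, 0x10, 0x40], [0, 0, 0, 0x40], [0, 0, 0, 0]],
  [0, 0, 0, 0],
  [(4, 1, 6), (4, 4, 5), (4, 0x10, 0x89), (4, 0x40, 0x11), (5, 1, 0x29), (5, 4, 0x44), (5, 0x10, 6), (5, 0x40, 0xa0)], 11, 0x2020103000100030000⟩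
noncomputable def u3_ds : List (List ℕ) := [[4, 2, 4, 6, 8, 6, 4, 2, 8, 10, 8, 6, 4, 8, 0, 10, 8, 6, 4, 8, 6, 8, 12, 10, 1, 8, 1, 10, 6], [6, 4, 10, 1, 10, 8, 6, 0, 10, 4, 0, 10, 12, 6, 8, 10, 6, 8, 4, 6, 8, 4, 6, 8, 10, 8, 6, 4, 1, 4], [2, 4, 6, 8, 10, 0, 6, 8, 4, 6, 8, 10, 6, 8, 4, 0, 4, 6, 8, 10, 12, 6, 8, 10, 8, 0, 4, 2], [0, 4, 6, 4, 10, 8, 6, 4, 12, 10, 8, 6, 4, 8, 6, 8, 10, 12, 1, 10, 8, 6, 4, 8, 6, 1, 10, 8, 12, 10, 0], [12, 8, 6, 0, 2, 4, 2, 8, 6, 8, 10, 8, 6, 4, 8, 6, 10, 12, 1, 4, 6, 10, 8, 6, 4, 8, 1, 6, 1, 10, 8, 6], [0, 8, 1, 6, 8, 4, 10, 8, 6, 4, 0, 10, 8, 6, 4, 8, 6, 8, 12, 10, 8, 0, 10, 12]]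
noncomputable def u3_c : Mult.Cert := ⟨20, 19, [[], [], [], []],
  [([7, 7], 1, 0xa1a4f8ff)],
  [[0x19a1, 0x99d7, 0x311, 0x52cb], [0, 0x3435, 0x5dd, 1], [0, 0, 0x459c, 0x4fc8], [0, 0, 0, 0x9cf]]⟩

end Cfsg.Agent.ONC
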