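import Cfsg.Agent.Mult.Slices
import Cfsg.Agent.ONC.Mul3D

set_option autoImplicit false
set_option Elab.async false
set_option maxRecDepth 100000
set_option linter.all false

namespace Cfsg.Agent.ONC
open Cfsg.Agent.CGT

open Cfsg.Agent.Mult

set_option Elab.async false
theorem u3_all : allB u3_D u3_c [.assoc 0x80 0x40 4, .fus 4 [3, 1] [1, 3], .fus 4 [1, 1, 1] [], .fus 4 [3, 3, 3] [], .fus 4 [3, 2] [2, 3], .fus 4 [0, 0, 0] [], .fus 4 [2, 2, 2] [], .fus 5 [6, 5] [5, 6], .fus 5 [7, 6] [6, 7], .fus 5 [5, 4] [4, 5]] 17 m_ts u3_ds [2, 1, 55, 18, 16, 0] [(384, [0x40, 4]), (2559, [0x50]), (0, [0x89])] = true := by decide +kernel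

end Cfsg.Agent.ONC
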