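import Cfsg.Agent.Mult.Slices
import Cfsg.Agent.ONC.Tabs

set_option autoImplicit false
set_option Elab.async false
set_option maxRecDepth 100000
set_option linter.all false

namespace Cfsg.Agent.ONC
open Cfsg.Agent.CGT

open Cfsg.Agent.Mult

noncomputable def u7_D : PC := ⟨7, 3, 3, 27,
  [[0, 0x48, 0x40], [0, 0, 0x40], [0, 0, 0]],
  [7, 0, 0],
  [(3, 1, 0x122), (3, 8, 0x2c), (3, 0x40, 0x40)], 11, 0x1010002020100020000⟩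
noncomputable def u7_ds : List (List ℕ) := [[4, 0, 6, 12, 8, 10, 8, 6, 8, 6, 4, 10, 0, 4, 6, 8, 0, 10, 6, 4, 8, 2, 6, 4, 1, 6, 1, 10, 8], [4, 0, 4, 2, 8, 6, 4, 8, 10, 8, 6, 4, 8, 6, 4, 10, 8, 6, 2, 4, 1, 4, 10, 0, 6, 8, 6, 4, 0, 10], [6, 0, 10, 8, 6, 4, 8, 6, 8, 6, 10, 8, 6, 12, 10, 1, 4, 10, 8, 6, 8, 0, 4, 6, 10, 1, 8, 6, 1, 8, 4], [12, 4, 10, 8, 0, 6, 8, 10, 8, 4, 6, 1, 8, 10, 4, 0, 8, 0, 4, 6, 8, 10, 1, 8, 6, 10, 8, 6]]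
noncomputable def u7_c : Mult.Cert := ⟨318, 24, [[], [], [1]],
  [],
  [[0x1c36, 0, 0x3a3], [0, 0x27, 0x777], [0, 0, 0x3846]]⟩

end Cfsg.Agent.ONC
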