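import Cfsg.Agent.Mult.Slices
import Cfsg.Agent.ONC.Mul7D

set_option autoImplicit false
set_option Elab.async false
set_option maxRecDepth 100000
set_option linter.all false

namespace Cfsg.Agent.ONC
open Cfsg.Agent.CGT

open Cfsg.Agent.Mult

set_option Elab.async false
theorem u7_all : allB u7_D u7_c [.assoc 0x30 8 1, .fus 3 [2, 0] [0, 2], .fus 3 [2, 1] [1, 2], .fus 3 [0, 0, 0, 0, 0, 0, 0] [], .fus 3 [1, 1, 1, 1, 1, 1, 1] []] 17 m_ts u7_ds [2, 1, 55, 18, 16, 0] [(3183, [8]), (5327, [0x40]), (0, [0x59])] = true := by decide +kernel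

end Cfsg.Agent.ONC
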